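import Cfsg.Agent.H68.Gen2
import Cfsg.Agent.H68.TwD4
import Cfsg.Agent.H68.ReeAlg
import Cfsg.Agent.H30.ReeInst

/-! Two-generation of the exceptional twisted groups. -/

set_option autoImplicit false
set_option linter.unusedSectionVars false

namespace H68.Gen2

open Cfsg Cfsg.Lie Subgroup
open H64 (gen le_gen gen_le gen_mono RGD WData)
open H63 (RS Rt)
open H68.E6F4 (Co)

theorem top_of_forall {G : Type*} [Group G] {A : Subgroup G} {a b : G} (ha : a ∈ A) (hb : b ∈ A)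
    (h : ∀ L ≤ A, a ∈ L → b ∈ L → A ≤ L) : ∃ a b : A, Subgroup.closure ({a, b} : Set A) = ⊤ :=
  top_of_le ha hb (h _ ((closure_le _).2 (by rintro _ (rfl | rfl) <;> assumption)) (fst_mem _ _) (snd_mem _ _))

section gen
variable {D : ChevalleyDatum} [RS D] {F : Type*} [Field F] {G : Type*} [Group G] {M : CM D F G}
  {K : Subgroup G} {Ω : Type} {τ : Tw (rd D) Ω} {S : TwG M.T τ}

theorem WK.words {l l' : List ℕ} (h : WK M.T K (wP D l)) (h' : WK M.T K (wP D l')) (b : List Bool) :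
    WK M.T K (wP D (b.flatMap fun x => if x then l else l')) := by
  induction b with
  | nil => exact WK.one
  | cons x b ih =>
    rw [List.flatMap_cons]
    cases x
    exacts [h'.app ih, h.app ih]

theorem mem_of_comm {a b c : G} (ha : a ∈ K) (hb : b ∈ K) (e : a * b = b * a * c) : c ∈ K :=
  (mul_mem_cancel_left (mul_mem hb ha)).1 (e ▸ mul_mem ha hb)

end gen

variable {K : Type*} [Field K] [Fintype K]

theorem Prim.pow_ne {l : Kˣ} (h : Prim l) {q d : ℕ} (hq : 1 < q) (hd : 1 < d) (hK : Fintype.card K = q ^ d) :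
    l ^ q ≠ l := fun e => by
  have h1 : l ^ (q - 1) = 1 := mul_right_cancel (b := l) (by rw [← pow_succ, Nat.sub_add_cancel hq.le, e, one_mul])
  have h2 := Nat.le_of_dvd (by omega) (orderOf_dvd_of_pow_eq_one h1)
  rw [orderOf_eq_card_of_forall_mem_zpowers h, Nat.card_units, Nat.card_eq_fintype_card, hK] at h2
  have := Nat.pow_lt_pow_right hq hd
  rw [pow_one] at this
  omega

theorem two_gen_E6 {q : ℕ} (hq : IsPrimePow q) (hK : Fintype.card K = q ^ 2) :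
    ∃ a b : twistedE6 K q, closure ({a, b} : Set (twistedE6 K q)) = ⊤ := by
  obtain ⟨κ, hκ⟩ := exists_prim K
  have h1 : κ ≠ 1 := fun e => hκ.pow_ne hq.one_lt one_lt_two hK (by simp [e])
  have eF := twistedE6_eq_Fix hq hK
  have hT := isTw_E6 hq hK
  obtain ⟨m, hm, hmK, ac⟩ : WK (mat chevE6 K).T (twistedE6 K q) (wP chevE6 [1, 3, 0, 5, 2, 4]) := by
    have := fun o => wo_E6 o ▸ wk_wo (hT.U_le o) (hT.V_le o)
    exact (this 0).app ((this 1).app ((this 3).app (this 2)))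
  have hc := tor_mem_E6 hq hK ((tl_mem_F_E6 hq hK (a := 1) (b := 1) (c := κ) (d := 1)).2
    ⟨one_pow _, one_pow _, rfl, (one_pow _).symm⟩)
  have hy := (fix2_E6' hq hK (nfU_E6 3) (by decide)).2 ⟨1, rfl⟩
  refine top_of_forall hc (mul_mem (hT.U_le 3 hy) hmK) fun L LF h0 h0' => ?_
  rw [eF] at LF
  have c1 : CM.chi (tl chevE6 [1, 1, κ, 1, κ ^ q, 1]) (chevE6.simple (⟨0, by decide⟩ : Fin chevE6.rank)) = κ⁻¹ :=
    (chiE6 _ _ _ _ _ _).1.trans (by simp)
  have h2 := key_co (K := L) hm (eF ▸ hmK) ac (eF ▸ hc) (i := ⟨0, by decide⟩) (a' := 14) (by decide) (by decide +kernel)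
    (c1 ▸ hκ.inv) (by rw [c1]; simpa using h1) (by
      rw [chi_tl _ rfl (z := [-1, 0, -1, 1, 0, 0]) (by decide)]; simpa using h1) hy
    (co_wd (by decide) _ (by simp; decide)) h0 h0'
  have h3 : UJ (mat chevE6 K).T (twE6.J {3}) ⊓ (tgE6 hq hK).Fix ≤ L := fun g hg => by
    obtain ⟨t, rfl⟩ := (fix2_E6' hq hK (nfU_E6 3) (by decide)).1 hg
    obtain ⟨g, h4, h5, h6⟩ := h2 t
    obtain ⟨t', rfl⟩ := (fix2_E6' hq hK (nfU_E6 3) (by decide)).1 h5
    rwa [h6.unique (co_wd (by decide) _ (by simp; decide))]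
  have hW : WK (mat chevE6 K).T L _ := ⟨m, hm, (mul_mem_cancel_left (h3 hy)).1 h0', ac⟩
  have h4 := h3
  rw [nf_eq (nfU_E6 3)] at h4
  have h5 := RG_le LF (hW.words hW (.replicate 6 true)) h4 (negE6 (3 : Fin 4)) (by decide +kernel)
  have hW' : WK (mat chevE6 K).T L (wP chevE6 [0, 5]) := wo_E6 3 ▸ wk_wo h3 (by rwa [nf_eq (nfV_E6 3)])
  have h6 : ∀ (b : List Bool) {r s : ℕ} {ε : ℤ}, (r < 72 ∧ s < 72 ∧ rhoE6 r = s ∧ rhoE6 s = r ∧ gamE6 r = ε ∧
      gamE6 s = ε ∧ (ε = 1 ∨ ε = -1) ∧ s ≠ chevE6.neg r ∧ chevE6.commTerms r s = []) ∧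
      (∀ x ∈ [r, s], fN chevE6 (b.flatMap fun x => if x then [1, 3, 0, 5, 2, 4] else [0, 5]) x ∈
        posE6 (3 : Fin 4)) → ∀ t, (mat chevE6 K).wd [(r, t), (s, ε * t ^ q)] ∈ L := fun b r s ε h t =>
    RG_le LF (hW.words hW' b) h4 _ h.2 (wd_mem_RG (by simpa using ⟨h.1.1, h.1.2.1⟩) (eF ▸ pair_mem_E6 hq hK h.1 t))
  have hP : (mat chevE6 K).wd [(31, 1), (28, -1)] ∈ L := by
    simpa using h6 [true, true] (r := 31) (s := 28) (ε := -1) (by decide +kernel) 1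
  have hQ : (mat chevE6 K).wd [(43, 1), (40, -1)] ∈ L := by
    simpa using h6 [false, true, true] (r := 43) (s := 40) (ε := -1) (by decide +kernel) 1
  rw [twistedE6, mat_genSubgroup, closure_le]
  rintro _ ⟨w, hw, rfl⟩
  rcases e6Words_cases hw with ⟨t, h, hw⟩ | ⟨t, rfl | rfl | rfl | rfl⟩
  · obtain ⟨a, rfl⟩ := trace2_surj hq hK h
    rcases hw with rfl | rfl | rfl | rfl
    exacts [mem_of_comm hP (by simpa using h6 [false, true, true, false, true] (r := 48) (s := 50) (ε := 1) (by decide +kernel) a)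
        (comm_E6 48 50 31 28 46 (by decide +kernel) _ _),
      mem_of_comm hQ (by simpa using h6 [true, true, false, true] (r := 21) (s := 23) (ε := 1) (by decide +kernel) a)
        (comm_E6 21 23 43 40 25 (by decide +kernel) _ _),
      mem_of_comm hQ (by simpa using h6 [true, false] (r := 29) (s := 34) (ε := 1) (by decide +kernel) a)
        (comm_E6 29 34 43 40 39 (by decide +kernel) _ _),
      mem_of_comm hP (by simpa using h6 [false, true, false] (r := 37) (s := 42) (ε := 1) (by decide +kernel) a)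
        (comm_E6 37 42 31 28 32 (by decide +kernel) _ _)]
  · simpa using h6 [] (r := 56) (s := 36) (ε := 1) (by decide +kernel) t
  · simpa using h6 (.replicate 6 true) (r := 15) (s := 35) (ε := 1) (by decide +kernel) t
  · simpa using h6 [false, true, false] (r := 42) (s := 37) (ε := 1) (by decide +kernel) t
  · simpa using h6 [true, false] (r := 29) (s := 34) (ε := 1) (by decide +kernel) t

theorem two_gen_3D4 {q : ℕ} (hq : IsPrimePow q) (hK : Fintype.card K = q ^ 3) :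
    ∃ a b : twistedD4 K q, closure ({a, b} : Set (twistedD4 K q)) = ⊤ := by
  obtain ⟨κ, hκ⟩ := exists_prim K
  have h1 := hκ.pow_ne hq.one_lt (by norm_num) hK
  have eF := twistedD4_eq_Fix hq hK
  have hT := isTw_D4 hq hK
  obtain ⟨m, hm, hmK, ac⟩ : WK (mat chevD4 K).T (twistedD4 K q) (wP chevD4 [1, 0, 2, 3]) :=
    (wo1_D4 ▸ wk_wo (hT.U_le 1) (hT.V_le 1)).app (wo0_D4 ▸ wk_wo (hT.U_le 0) (hT.V_le 0))
  have hN : ∀ u : Kˣ, (u * u ^ q * u ^ q ^ 2) ^ q = u * u ^ q * u ^ q ^ 2 := fun u => by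
    rw [mul_pow, mul_pow, ← pow_mul, ← pow_mul, ← pow_succ, pow_card_units hK, ← pow_two, ← mul_rotate]
  obtain ⟨a, ha⟩ : ∃ a : Kˣ, a ^ 2 = κ * (κ * κ ^ q * κ ^ q ^ 2) := by
    obtain ⟨k, hk⟩ := Nat.even_mul_succ_self q
    refine ⟨κ ^ (k + 1), ?_⟩
    rw [← pow_mul, show (k + 1) * 2 = 1 + (1 + q + q ^ 2) by nlinarith]
    simp [pow_add]
  have hc := tor_mem_D4 hq hK ((tl_mem_F_D4 hq hK (a := a)).2 ⟨hN κ, rfl, rfl⟩)
  have hy := (nfU0_D4.mem_inf_Fix (S := tgD4 hq hK)).2 ((fixU0_D4 hq hK).2 ⟨1, rfl⟩)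
  refine top_of_forall hc (mul_mem (hT.U_le 0 hy) hmK) fun L LF h0 h0' => ?_
  rw [eF] at LF
  have c1 : CM.chi (tl chevD4 [a, κ * κ ^ q * κ ^ q ^ 2, a ^ q, a ^ q ^ 2])
      (chevD4.simple (⟨0, by decide⟩ : Fin chevD4.rank)) = κ := (chiD4 _ _ _ _).1.trans (by simp [ha])
  have h2 := key_co (K := L) hm (eF ▸ hmK) ac (eF ▸ hc) (i := ⟨0, by decide⟩) (a' := 17) (by decide) (by decide +kernel)
    (c1.symm ▸ hκ) (by rw [c1]; rintro rfl; simp at h1) (by
      rw [chi_tl _ rfl (z := [-1, 0, 1, 1]) (by decide)]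
      intro e
      have e1 : a * a ^ q * a ^ q ^ 2 = a ^ 2 := by
        rw [pow_two a, mul_assoc]
        congr 1
        simpa [inv_mul_eq_one, eq_comm] using e
      have e2 := hN a
      rw [e1, ha, mul_pow, hN] at e2
      exact h1 (mul_right_cancel e2)) hy
    (co_wd (by decide) _ (by simp; decide)) h0 h0'
  have h3 : UJ (mat chevD4 K).T (twD4.J {0}) ⊓ (tgD4 hq hK).Fix ≤ L := fun g hg => by
    obtain ⟨t, rfl⟩ := (fixU0_D4 hq hK).1 (nfU0_D4.mem_inf_Fix.1 hg)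
    obtain ⟨g, h4, h5, h6⟩ := h2 t
    obtain ⟨t', rfl⟩ := (fixU0_D4 hq hK).1 (nfU0_D4.mem_inf_Fix.1 h5)
    rwa [h6.unique (co_wd (by decide) _ (by simp; decide))]
  have hW : WK (mat chevD4 K).T L _ := ⟨m, hm, (mul_mem_cancel_left (h3 hy)).1 h0', ac⟩
  have h4 := h3
  rw [nf_eq nfU0_D4] at h4
  have h5 := RG_le LF (hW.words hW (.replicate 3 true)) h4 [5, 10, 11] (by decide +kernel)
  rw [← nf_eq nfV0_D4] at h5
  have hn := neg_one_pow_D4 hq hK
  have hU1 : (mat chevD4 K).wd [(19, 1), (16, -1), (15, -1)] ∈ L := by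
    refine RG_le LF (hW.words hW (.replicate 2 true)) h4 [19, 16, 15] (by decide +kernel)
      (wd_mem_RG (by simp; decide) ((smD4 hq hK).wd_mem_Fix _ (by simp; decide) ((congrArg _ ?_).trans rotU_D4)))
    simp [smD4_ρ, smD4_γ, smD4_e, hn, rhoD4, gamD4]
  have hV1 : (mat chevD4 K).wd [(8, 1), (4, -1), (7, 1)] ∈ L := by
    refine RG_le LF (hW.words hW (.replicate 5 true)) h4 [8, 4, 7] (by decide +kernel)
      (wd_mem_RG (by simp; decide) ((smD4 hq hK).wd_mem_Fix _ (by simp; decide) ((congrArg _ ?_).trans rotV_D4)))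
    simp [smD4_ρ, smD4_γ, smD4_e, hn, rhoD4, gamD4]
  have hU := fun t => h3 ((nfU0_D4.mem_inf_Fix (S := tgD4 hq hK)).2 ((fixU0_D4 hq hK).2 ⟨t, rfl⟩))
  have hV := fun t => h5 ((nfV0_D4.mem_inf_Fix (S := tgD4 hq hK)).2 ((fixV0_D4 hq hK).2 ⟨t, rfl⟩))
  rw [twistedD4, mat_genSubgroup, closure_le]
  rintro _ ⟨w, hw, rfl⟩
  rcases mem_d4Words.1 hw with (⟨t, rfl⟩ | ⟨t, rfl⟩) | ⟨t, h, rfl⟩ | ⟨t, h, rfl⟩
  · exact hU t
  · exact hV t
  · obtain ⟨a, rfl⟩ := trace3_surj hq hK h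
    exact mem_of_comm hU1 (hV a) (commU_D4 _ _ _)
  · obtain ⟨a, rfl⟩ := trace3_surj hq hK h
    exact mem_of_comm hV1 (hU a) (commV_D4 _ _ _)

theorem two_gen_ree {F G : Type*} [Field F] [Group G] {m : ℕ} (R : H30.Ree F m G) (hm : 1 ≤ m) :
    ∃ a b : G, Subgroup.closure ({a, b} : Set G) = ⊤ := by
  have := R.finite_K
  have := Fintype.ofFinite F
  obtain ⟨κ, hκ⟩ := exists_prim F
  have h3 := hκ.pow_ne (q := 3) (d := 2 * m + 1) (by norm_num) (by omega) (Nat.card_eq_fintype_card (α := F) ▸ R.card_K)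
  have h0 : R.σ κ ≠ κ := fun e => h3 (Units.ext (by simpa [e] using (R.σσ κ).symm))
  have key : ∀ L : Subgroup G, R.h κ ∈ L → R.x 1 0 0 * R.n ∈ L → L = ⊤ := fun L h1 h2 => by
    have hH : ∀ s, R.h s ∈ L := fun s => by
      obtain ⟨k, rfl⟩ := hκ s
      simpa using zpow_mem h1 k
    have h4 := key (K := L) (fun t g => ∃ u v, g = R.x t u v)
      (by rintro t u _ _ ⟨a, b, rfl⟩ ⟨c, d, rfl⟩; exact ⟨_, _, R.x_mul _ _ _ _ _ _⟩)
      (by rintro t _ ⟨a, b, rfl⟩; exact ⟨_, _, R.x_inv _ _ _⟩) (R.H_comm (R.h_mem κ) (R.h_mem κ⁻¹))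
      (by rintro t _ ⟨a, b, rfl⟩; exact ⟨_, _, R.h_conj _ _ _ _⟩)
      (by rintro t _ ⟨a, b, rfl⟩; exact ⟨_, _, R.h_conj _ _ _ _⟩) ⟨0, 0, rfl⟩ hκ
      (by rintro rfl; simp at h3) (by rw [ne_eq, inv_eq_one]; rintro rfl; simp at h3) h1
      (by simpa [← R.n_conj, mul_assoc, H30.Ree.n] using mul_mem (mul_mem h2 h1) (inv_mem h2))
    have h5 : ∀ v, R.x 0 0 v ∈ L := fun v => by
      obtain ⟨t, ht⟩ := exists_sq_mul_psi R.σσ (-v)
      obtain ⟨_, h, u, w, rfl⟩ := h4 t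
      simpa [R.x_cube, ht] using pow_mem h 3
    have h6 : ∀ t u v w, R.x t u v ∈ L → R.x t u w ∈ L := fun t u v w h => by
      simpa [R.x_mul] using mul_mem h (h5 (w - v))
    obtain ⟨d, hd, h7⟩ : ∃ d ≠ 0, R.x 0 d 0 ∈ L := by
      obtain ⟨_, h, u, w, rfl⟩ := h4 1
      obtain ⟨_, h', u', w', rfl⟩ := h4 κ
      have := mul_mem (inv_mem (mul_mem h' h)) (mul_mem h h')
      rw [R.x_mul, R.x_mul, R.x_inv, R.x_mul] at this
      refine ⟨κ - R.σ κ, sub_ne_zero.2 h0.symm, ?_⟩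
      convert h6 _ _ _ 0 this using 2
      · ring
      · simp only [map_add, map_one]; ring
    have h8 : ∀ a, R.x 0 (a ^ 2 * d) 0 ∈ L := fun a => by
      by_cases ha : a = 0
      · simp [ha, R.x_zero]
      have h10 := hH (Units.mk0 (R.σ a / a) (div_ne_zero (R.σ_ne ha) ha))
      have := mul_mem (mul_mem h10 h7) (inv_mem h10)
      rw [R.h_conj] at this
      convert this using 2
      · simp
      · have := R.σ_ne ha
        simp only [Units.val_mk0, map_div₀, R.σσ]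
        field_simp
      · simp
    have h9 : ∀ u, R.x 0 u 0 ∈ L := fun u => by
      have := mul_mem (h8 (u / d + 1)) (inv_mem (h8 (u / d - 1)))
      rw [R.x_inv, R.x_mul] at this
      convert h6 _ _ _ 0 this using 2
      · simp
      · simp only [neg_zero, map_zero, mul_zero, sub_zero, zero_mul]
        field_simp
        linear_combination (-u * d) * R.three
    have hU : R.U ≤ L := by
      rintro _ ⟨t, u, v, rfl⟩
      obtain ⟨_, h, u', w, rfl⟩ := h4 t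
      have := mul_mem h (h9 (u - u'))
      rw [R.x_mul] at this
      convert h6 _ _ _ v this using 2 <;> simp
    have hB : R.B ≤ L := by
      rintro _ ⟨u, hu, _, ⟨s, rfl⟩, rfl⟩
      exact mul_mem (hU hu) (hH s)
    refine eq_top_iff.2 fun g _ => ?_
    rcases R.bruhat' g with h | ⟨u, hu, b, hb, rfl⟩
    · exact hB h
    · exact mul_mem (mul_mem (hU hu) ((mul_mem_cancel_left (hU (R.x_mem _ _ _))).1 h2)) (hB hb)
  exact ⟨_, _, key _ (fst_mem _ _) (snd_mem _ _)⟩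

omit [Fintype K] in
theorem sqU_F4 [CharP K 2] (a t c d : K) : (mat chevF4 K).wd [(27, a), (25, t), (28, c), (30, d)] *
    (mat chevF4 K).wd [(27, a), (25, t), (28, c), (30, d)] = (mat chevF4 K).wd [(28, t * a), (30, t * a ^ 2)] := by
  simp only [← CM.wd_append]
  refine (congrArg _ ?_).trans ((engF4 [a, t, c, d] (by simp)
    [(27, [(1, [0])]), (25, [(1, [1])]), (28, [(1, [2])]), (30, [(1, [3])]),
      (27, [(1, [0])]), (25, [(1, [1])]), (28, [(1, [2])]), (30, [(1, [3])])]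
    [(28, [(1, [1, 0])]), (30, [(1, [1, 0, 0])])] (by decide +kernel)).trans (congrArg _ ?_)) <;>
  simp [evPW, pow_two]

omit [Fintype K] in
theorem mulZ_F4 [CharP K 2] (a t c d c' d' : K) : (mat chevF4 K).wd [(27, a), (25, t), (28, c), (30, d)] *
    (mat chevF4 K).wd [(28, c'), (30, d')] = (mat chevF4 K).wd [(27, a), (25, t), (28, c + c'), (30, d + d')] := by
  simp only [← CM.wd_append]
  refine (congrArg _ ?_).trans ((engF4 [a, t, c, d, c', d'] (by simp)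
    [(27, [(1, [0])]), (25, [(1, [1])]), (28, [(1, [2])]), (30, [(1, [3])]), (28, [(1, [4])]), (30, [(1, [5])])]
    [(27, [(1, [0])]), (25, [(1, [1])]), (28, [(1, [2]), (1, [4])]), (30, [(1, [3]), (1, [5])])]
    (by decide +kernel)).trans (congrArg _ ?_)) <;>
  simp [evPW]

omit [Fintype K] in
theorem commA_F4 [CharP K 2] (a t c : K) : (mat chevF4 K).wd [(34, 1), (26, 1), (36, 1)] *
    (mat chevF4 K).wd [(20, a), (22, t), (19, c)] = (mat chevF4 K).wd [(20, a), (22, t), (19, c)] *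
      (mat chevF4 K).wd [(34, 1), (26, 1), (36, 1)] * (mat chevF4 K).wd [(33, a), (24, t)] := by
  simp only [← CM.wd_append]
  refine (congrArg _ ?_).trans ((engF4 [a, t, c] (by simp)
    [(34, [(1, [])]), (26, [(1, [])]), (36, [(1, [])]), (20, [(1, [0])]), (22, [(1, [1])]), (19, [(1, [2])])]
    [(20, [(1, [0])]), (22, [(1, [1])]), (19, [(1, [2])]), (34, [(1, [])]), (26, [(1, [])]), (36, [(1, [])]),
      (33, [(1, [0])]), (24, [(1, [1])])] (by decide +kernel)).trans (congrArg _ ?_)) <;>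
  simp [evPW]

omit [Fintype K] in
theorem fixA_F4 [CharP K 2] : (mat chevF4 K).wd [(26, 1), (34, 1), (42, 1)] =
    (mat chevF4 K).wd [(34, 1), (26, 1), (36, 1)] := by
  refine (congrArg _ ?_).trans ((engF4 [] (by simp) [(26, [(1, [])]), (34, [(1, [])]), (42, [(1, [])])]
    [(34, [(1, [])]), (26, [(1, [])]), (36, [(1, [])])] (by decide +kernel)).trans (congrArg _ ?_)) <;>
  simp [evPW]

theorem two_gen_2F4 {m : ℕ} (hm : 1 ≤ m) (hK : Fintype.card K = 2 ^ (2 * m + 1)) :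
    ∃ a b : twistedF4 K (2 ^ m), Subgroup.closure ({a, b} : Set (twistedF4 K (2 ^ m))) = ⊤ := by
  have := charP_two hK
  obtain ⟨κ, hκ⟩ := exists_prim K
  have hκ' : Prim (κ ^ 2 ^ m) := hκ.of_surj fun u => ⟨u ^ (2 ^ m * 2), by rw [pow_right_comm, upow_theta2 hK]⟩
  have h1 : κ ^ 2 ^ m ≠ 1 := fun e => hκ'.pow_ne one_lt_two (by omega) hK (by simp [e])
  have eF := twistedF4_eq_Fix hK
  have hT := isTw_F4 hK
  obtain ⟨n, hn, hnK, ac⟩ : WK (mat chevF4 K).T (twistedF4 K (2 ^ m)) (wP chevF4 [1, 2, 1, 2, 0, 3]) :=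
    (wo1_F4 ▸ wk_wo (hT.U_le 1) (hT.V_le 1)).app (wo0_F4 ▸ wk_wo (hT.U_le 0) (hT.V_le 0))
  have hc : (mat chevF4 K).tor (tl chevF4 [κ ^ 2 ^ m, 1 ^ 2 ^ m, 1, κ]) ∈ _ := hReeF_mem hK (κ, 1)
  have hy := (mem_Fix_F4 hK nfU1_F4).2 ((fixU1_F4 hK).2 ⟨1, 0, rfl⟩)
  refine top_of_forall hc (mul_mem (hT.U_le 1 hy) hnK) fun L LF h0 h0' => ?_
  rw [eF] at LF
  have c1 : CM.chi (tl chevF4 [κ ^ 2 ^ m, 1 ^ 2 ^ m, 1, κ]) (chevF4.simple (⟨1, by decide⟩ : Fin chevF4.rank)) =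
    (κ ^ 2 ^ m)⁻¹ := (chiF4 _ _ _ _).2.2.1.trans (by simp)
  have co : ∀ t u : K, Co (mat chevF4 K) ⟨1, by decide⟩ (t ^ 2 ^ m)
      ((mat chevF4 K).wd (b2ClassWord (2 ^ m) 27 25 28 30 t u)) := fun t u =>
    co_wd (by decide) _ (by simp; decide)
  have h2 := key_co (K := L) hn (eF ▸ hnK) ac (eF ▸ hc) (i := ⟨1, by decide⟩) (a' := 13) (by decide) (by decide +kernel)
    (c1 ▸ hκ'.inv) (by rw [c1]; simpa using h1) (by
      rw [chi_tl _ rfl (z := [-1, -1, 1, 0]) (by decide)]; simpa using h1) hy (by simpa using co 1 0) h0 h0'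
  have h3 : ∀ t, ∃ u, (mat chevF4 K).wd (b2ClassWord (2 ^ m) 27 25 28 30 t u) ∈ L := fun t => by
    obtain ⟨g, h4, h5, h6⟩ := h2 (t ^ 2 ^ m)
    obtain ⟨t', u, rfl⟩ := (fixU1_F4 hK).1 ((mem_Fix_F4 hK nfU1_F4).1 h5)
    have := congrArg (· ^ (2 ^ m * 2)) (h6.unique (co t' u))
    simp only [pow_theta2 hK] at this
    exact ⟨u, this ▸ h4⟩
  have h4 : ∀ v, (mat chevF4 K).wd [(28, v), (30, v ^ (2 * 2 ^ m))] ∈ L := fun v => by
    obtain ⟨t, rfl⟩ : ∃ t : K, t * t ^ 2 ^ m = v := by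
      by_cases hv : v = 0
      · exact ⟨0, by simp [hv]⟩
      refine ⟨v ^ 2 / v ^ (2 ^ m * 2), ?_⟩
      rw [div_pow, pow_theta2' hK, ← pow_mul, mul_comm 2]
      field_simp
    obtain ⟨u, h⟩ := h3 t
    have := mul_mem h h
    rw [b2ClassWord, sqU_F4] at this
    rwa [mul_pow, mul_comm 2, pow_theta2 hK, pow_mul, mul_comm _ t]
  have h5 : UJ (mat chevF4 K).T (twF4.J {1}) ⊓ (tgF4 hK).Fix ≤ L := fun g hg => by
    obtain ⟨t, u, rfl⟩ := (fixU1_F4 hK).1 ((mem_Fix_F4 hK nfU1_F4).1 hg)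
    obtain ⟨u', h⟩ := h3 t
    have := mul_mem h (h4 (u' + u))
    rw [b2ClassWord, mulZ_F4, ← pow_succ', add_pow_char_pow, add_assoc, CharTwo.add_cancel_left,
      CharTwo.add_cancel_left, pow_succ' 2] at this
    exact this
  have hW : WK (mat chevF4 K).T L _ := ⟨n, hn, (mul_mem_cancel_left (h5 hy)).1 h0', ac⟩
  have h6 := h5
  rw [nf_eq nfU1_F4] at h6
  have h7 := RG_le LF (hW.words hW (.replicate 4 true)) h6 [20, 22, 19, 17] (by decide +kernel)
  rw [← nf_eq nfV1_F4] at h7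
  have hW' := ((wo1_F4 ▸ wk_wo h5 h7).app hW).congr [0, 3] (by decide +kernel)
  have hA : (mat chevF4 K).wd [(34, 1), (26, 1), (36, 1)] ∈ L := by
    refine RG_le LF hW' h6 [34, 26, 36] (by decide +kernel) (wd_mem_RG (by simp; decide)
      ⟨(mat chevF4 K).wd_mem_Gp (by simp; decide), (smF4_wd hK (by simp)).trans ((congrArg _ ?_).trans fixA_F4)⟩)
    simp [rhoF4]
  have h8 : UJ (mat chevF4 K).T (twF4.J {0}) ⊓ (tgF4 hK).Fix ≤ L := fun g hg => by
    obtain ⟨t, rfl⟩ := (fixU0_F4 hK).1 ((mem_Fix_F4 hK nfU0_F4).1 hg)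
    refine mem_of_comm hA ?_ (commA_F4 _ t (t ^ (2 ^ m + 1)))
    simpa [b2ClassWord] using h7 ((mem_Fix_F4 hK nfV1_F4).2 ((fixV1_F4 hK).2 ⟨t, 0, rfl⟩))
  have h9 := h8
  rw [nf_eq nfU0_F4] at h9
  have h10 := RG_le LF hW' h9 [14, 23] (by decide +kernel)
  rw [← nf_eq nfV0_F4] at h10
  rw [twistedF4, mat_genSubgroup, closure_le]
  intro g hg
  obtain ⟨o, h | h⟩ := f4Words_cases hK hg <;> fin_cases o
  exacts [h8 h, h5 h, h10 h, h7 h]

end H68.Gen2
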