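/- Singular elements of a group of Lie type lie in proper parabolic subgroups; the orders of the
minimal parabolic subgroups. -/
import Cfsg.Agent.H68.TwAut
import Cfsg.Agent.H63.Rgd1

set_option autoImplicit false
set_option linter.unusedSectionVars false

namespace H68

open H64 (WData)
open H54 (GRD LieS)

section

variable {Φ ι : Type*} {R : WData Φ ι} {G : Type*} [Group G] (T : GRD R G) [Finite Φ] [Finite G]

theorem card_PJ_single (i : ι) : Nat.card (T.PJ {i}) = Nat.card T.B * (1 + Nat.card (T.X (R.p i))) := by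
  classical
  have h1 : (1 : R.W) ≠ R.sW i := fun e => by
    have := R.Inv_one
    rw [e, GRD.Inv_sW] at this
    exact Set.singleton_ne_empty _ this
  rw [T.card_PJ _ inferInstance, show (Set.toFinite (R.WJ {i} : Set R.W)).toFinset = {1, R.sW i} by
    ext w
    simp only [Set.Finite.mem_toFinset, SetLike.mem_coe, Finset.mem_insert, Finset.mem_singleton]
    exact ⟨H63.mem_WJ_single, by rintro (rfl | rfl); exacts [one_mem _, R.sW_mem_WJ rfl]⟩, Finset.sum_pair h1]
  simp [R.Inv_one, GRD.Inv_sW]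

end

/-- a `p`-singular element lies in a conjugate of a proper parabolic subgroup -/
theorem exists_conj_mem_PJ {p : ℕ} [Fact p.Prime] {G : Type*} [Group G] [Finite G] (L : LieS p G) {g : G}
    (hg : p ∣ orderOf g) : ∃ J : Set L.ι, J ≠ Set.univ ∧ ∃ y, y⁻¹ * g * y ∈ L.T.PJ J := by
  by_contra! h
  have h1 := H54.stGRD_eq_zero L.T L.top L.pU L.pH hg
  rw [H54.stGRD, Finset.sum_eq_single Finset.univ (fun J _ hJ => ?_) (by simp), Finset.coe_univ, L.T.PJ_univ,
    L.top, Cfsg.fixedPointCharacter, mul_eq_zero, Nat.cast_eq_zero] at h1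
  · refine h1.elim (by simp) (Nat.card_pos_iff.2 ⟨⟨QuotientGroup.mk 1, QuotientGroup.eq.2 trivial⟩,
      inferInstance⟩).ne'
  · have : IsEmpty (MulAction.fixedBy (G ⧸ L.T.PJ (J : Set L.ι)) g) := ⟨fun ⟨x, hx⟩ => by
      obtain ⟨y, rfl⟩ := QuotientGroup.mk_surjective x
      exact h J (by simpa using hJ) y (by simpa [mul_assoc] using QuotientGroup.eq.1 hx.symm)⟩
    simp [Cfsg.fixedPointCharacter]

theorem exists_dvd_card_PJ {p : ℕ} [Fact p.Prime] {G : Type*} [Group G] [Finite G] (L : LieS p G) {a b : G}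
    (ha : orderOf a = p) (hab : Commute a b) {r : ℕ} (hr : r.Prime) (hb : r ∣ orderOf b) (hrp : r ≠ p) :
    ∃ J : Set L.ι, J ≠ Set.univ ∧ r ∣ Nat.card (L.T.PJ J) := by
  have h1 := orderOf_pow_orderOf_div (orderOf_pos b).ne' hb
  have h2 := (hab.pow_right (orderOf b / r)).orderOf_mul_eq_mul_orderOf_of_coprime
    (by rw [ha, h1]; exact (Nat.coprime_primes Fact.out hr).2 hrp.symm)
  rw [ha, h1] at h2
  obtain ⟨J, hJ, y, hy⟩ := exists_conj_mem_PJ L (h2 ▸ Dvd.intro _ rfl)
  refine ⟨J, hJ, (Dvd.intro_left _ h2.symm).trans ?_⟩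
  have := Subgroup.orderOf_dvd_natCard _ hy
  rwa [← MulAut.conj_symm_apply, MulEquiv.orderOf_eq] at this

namespace TwG.IsTw

variable {R ι : Type} [Fintype R] [DecidableEq R] [Fintype ι] [DecidableEq ι] {D : RD R ι}
  {G : Type*} [Group G] {T : H64.RGD D.toW G} {Ω : Type} {τ : Tw D Ω} {S : TwG T τ} {A : Subgroup G}
  (hA : S.IsTw A)

theorem card_grdK_U : Nat.card hA.grdK.U = Nat.card ↥(T.U ⊓ A) := by
  rw [grdK, H54.grdRes_U, grd_U, Nat.card_congr (Subgroup.subgroupOfEquivOfLe inf_le_right).toEquiv]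

theorem card_grdK_H : Nat.card hA.grdK.H = Nat.card ↥(T.H ⊓ A) := H54.card_grdRes_H ..

theorem card_grdK_X_p (o : Ω) : Nat.card (hA.grdK.X (τ.wdata.p o)) = Nat.card ↥(UJ T (τ.J {o}) ⊓ S.Fix) := by
  rw [le_antisymm (le_inf inf_le_left (hA.U_le o)) (inf_le_inf_left _ hA.le_fix)]
  exact H54.card_grdRes_X ..

end TwG.IsTw

end H68
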